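import Cfsg.Agent.Lib.H2.Schmidt
import Cfsg.Agent.Lib.H1.Hall

/-! Carter subgroups; Frattini argument for Hall subgroups (helper2). -/

set_option autoImplicit false
set_option linter.style.haveILetI false
open Cfsg Subgroup
open scoped Pointwise commutatorElement

namespace Cfsg.Agent.H2

universe u

variable {G : Type*} [Group G]

/-- S0050 -/
theorem hall_frattini [Finite G] (L : Subgroup G) [L.Normal] (hL : Group.IsSolvable L)
    (H : Subgroup G) (hHL : H ≤ L) (hHall : (Nat.card H).Coprime (H.relIndex L)) :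
    L ⊔ normalizer (H : Set G) = ⊤ := by
  rw [eq_top_iff]
  intro g _
  have h1 : MulAut.conj g • H ≤ L := by
    rw [← Normal.conj_smul_eq_self g L]
    exact pointwise_smul_le_pointwise_smul_iff.2 hHL
  obtain ⟨l, hl, h⟩ := H1.exists_conj_of_subgroupOf hHL h1
    (H1.hall_conj (H1.card_mul_relIndex hHL).symm hHall (H1.card_subgroupOf_of_le hHL)
      (by rw [H1.card_subgroupOf_of_le h1, card_conj_smul]))
  have h2 : l⁻¹ * g ∈ normalizer (H : Set G) := by
    rw [← conj_smul_eq_iff_mem_normalizer, ← conj_smul_conj_smul, ← h, conj_smul_conj_smul,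
      inv_mul_cancel, conj_one_smul]
  have : g = l * (l⁻¹ * g) := by group
  rw [this]
  exact mul_mem (mem_sup_left hl) (mem_sup_right h2)

theorem isNilpotent_of_injective {H : Type*} [Group H] [Group.IsNilpotent H] (f : G →* H)
    (hf : Function.Injective f) : Group.IsNilpotent G :=
  Group.nilpotent_of_mulEquiv (MonoidHom.ofInjective hf).symm

theorem isNilpotent_of_ker_inf_ker {H K : Type*} [Group H] [Group K] [Group.IsNilpotent H]
    [Group.IsNilpotent K] (f : G →* H) (g : G →* K) (h : f.ker ⊓ g.ker = ⊥) :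
    Group.IsNilpotent G :=
  isNilpotent_of_injective (f.prod g) (by rwa [← MonoidHom.ker_eq_bot_iff, MonoidHom.ker_prod])

theorem le_of_coprime_relIndex {Q D A : Subgroup G} (hD : D ≤ normalizer (Q : Set G)) (hA : A ≤ D)
    (h : (Nat.card A).Coprime (Q.relIndex D)) : A ≤ Q := by
  haveI := normal_subgroupOf_of_le_normalizer hD
  have : A.subgroupOf D ≤ Q.subgroupOf D :=
    H1.le_of_card_coprime_index (by rwa [H1.card_subgroupOf_of_le hA])
  exact fun a ha => this (x := ⟨a, hA ha⟩) ha

/-- A nilpotent subgroup has a normal Hall `p'`-subgroup. -/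
theorem exists_normal_pComplement_of_isNilpotent [Finite G] (p : ℕ) [Fact p.Prime] (C : Subgroup G)
    [Group.IsNilpotent C] : ∃ Q : Subgroup G, Q ≤ C ∧
      normalizer (C : Set G) ≤ normalizer (Q : Set G) ∧ (Nat.card Q).Coprime p ∧
      ∃ k, Q.relIndex C = p ^ k := by
  refine ⟨(pPrimeCore p C).map C.subtype, map_subtype_le _,
    H1.normalizer_le_normalizer_map_characteristic _, ?_, ?_⟩
  · rw [H1.card_map_subtype]; exact H1.pPrimeCore_card_coprime p C
  · rw [relIndex, subgroupOf, comap_map_eq_self_of_injective C.subtype_injective]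
    have h1 : pCore p C ⊔ pPrimeCore p C = ⊤ := top_le_iff.1
      (H1.fittingSubgroup_eq_top_iff.2 ‹_› ▸ H1.fittingSubgroup_le_pCore_sup_pPrimeCore p)
    obtain ⟨k, hk⟩ := IsPGroup.iff_card.1 (H1.pCore_isPGroup p C)
    have h2 : (pPrimeCore p C).index ∣ p ^ k := by
      rw [← relIndex_top_right, ← h1, relIndex_sup_right, ← hk]
      exact relIndex_dvd_card _ _
    obtain ⟨j, -, hj⟩ := (Nat.dvd_prime_pow Fact.out).1 h2
    exact ⟨j, hj⟩

theorem isPGroup_quotient_of_index {N : Subgroup G} [N.Normal] {p k : ℕ} (h : N.index = p ^ k) :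
    IsPGroup p (G ⧸ N) :=
  IsPGroup.of_card h

/-- A Carter subgroup: nilpotent and self-normalising. -/
def IsCarter (C : Subgroup G) : Prop := Group.IsNilpotent C ∧ normalizer (C : Set G) = C

theorem IsCarter.subgroupOf {C H : Subgroup G} (hC : IsCarter C) (h : C ≤ H) :
    IsCarter (C.subgroupOf H) := by
  haveI := hC.1
  exact ⟨Group.nilpotent_of_mulEquiv (subgroupOfEquivOfLe h).symm,
    by rw [← subgroupOf_normalizer_eq h, hC.2]⟩

theorem IsCarter.conj {C : Subgroup G} (hC : IsCarter C) (g : G) :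
    IsCarter (MulAut.conj g • C) := by
  haveI := hC.1
  exact ⟨Group.nilpotent_of_mulEquiv (equivSMul (MulAut.conj g) C),
    by rw [← H1.conj_smul_normalizer, hC.2]⟩

theorem IsCarter.eq_top [Group.IsNilpotent G] {C : Subgroup G} (hC : IsCarter C) : C = ⊤ :=
  normalizerCondition_iff_only_full_group_self_normalizing.1
    Group.normalizerCondition_of_isNilpotent C hC.2

theorem exists_isCarter_aux (n : ℕ) : ∀ (G : Type u) [Group G] [Finite G] [Group.IsSolvable G],
    Nat.card G = n → ∃ C : Subgroup G, IsCarter C := by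
  induction n using Nat.strong_induction_on with
  | _ n ih =>
    intro G _ _ _ hn
    by_cases htop : (⊤ : Subgroup G) = ⊥
    · refine ⟨⊤, ?_, normalizer_eq_top _⟩
      rw [htop]; infer_instance
    obtain ⟨N, hN1, hN2, -, -, -, p, hp, hpN, -⟩ := exists_minimal_normal_pgroup ⊤ htop
    haveI := Fact.mk hp
    obtain ⟨C', hC'1, hC'2⟩ := ih _ (hn ▸ card_quotient_lt hN2) (G ⧸ N) rfl
    obtain ⟨Q', hQ'1, hQ'2, hQ'3, k, hk⟩ := exists_normal_pComplement_of_isNilpotent p C'
    set π := QuotientGroup.mk' N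
    have hπ : Function.Surjective π := QuotientGroup.mk'_surjective N
    have hker : π.ker = N := QuotientGroup.ker_mk' N
    set C := C'.comap π
    set K := Q'.comap π
    have hNK : N ≤ K := hker ▸ ker_le_comap π Q'
    have hKC : K ≤ C := comap_mono hQ'1
    have hCC : normalizer (C : Set G) = C := by
      rw [← comap_normalizer_eq_of_surjective _ hπ, hC'2]
    have hCK : C ≤ normalizer (K : Set G) := by
      rw [← comap_normalizer_eq_of_surjective _ hπ]
      exact comap_mono (le_normalizer.trans hQ'2)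
    have hiK : N.relIndex K = Nat.card Q' := by
      have h1 := H1.card_mul_relIndex hNK
      rw [H1.card_comap_mk'] at h1
      exact Nat.eq_of_mul_eq_mul_left Nat.card_pos h1
    have hiC : K.relIndex C = p ^ k := by
      rw [relIndex_comap, map_comap_eq_self_of_surjective hπ, hk]
    obtain ⟨Q, hQK, hQc, hNQ, hdis⟩ := H1.exists_complement_of_coprime_relIndex hNK
      le_normalizer_of_normal (by rw [hiK]; exact (H1.coprime_card_of_isPGroup hpN hQ'3).symm)
    have hQp : (Nat.card Q).Coprime p := by rwa [hQc, hiK]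
    have hQN : (Nat.card Q).Coprime (Nat.card N) := H1.coprime_card_of_isPGroup hpN hQp
    set D := C ⊓ normalizer (Q : Set G)
    have hQD : Q ≤ D := le_inf (hQK.trans hKC) le_normalizer
    obtain ⟨a, ha⟩ := IsPGroup.iff_card.1 hpN
    have hiQ : Q.relIndex C = p ^ (a + k) := by
      rw [← relIndex_mul_relIndex Q K C hQK hKC, hiC, pow_add]
      congr 1
      have h1 := H1.card_mul_relIndex hQK
      have h2 := H1.card_mul_relIndex hNK
      rw [← hQc, ha, mul_comm, ← h1] at h2
      exact (Nat.eq_of_mul_eq_mul_left Nat.card_pos h2).symm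
    obtain ⟨j, -, hj⟩ := (Nat.dvd_prime_pow hp).1
      (hiQ ▸ Dvd.intro _ (relIndex_mul_relIndex Q D C hQD inf_le_left))
    have hDN : D ⊔ N = C := by
      refine le_antisymm (sup_le inf_le_left (hNK.trans hKC)) fun c hc => ?_
      have h1 : MulAut.conj c • Q ≤ N ⊔ Q := by
        rw [hNQ, ← conj_smul_eq_iff_mem_normalizer.2 (hCK hc)]
        exact pointwise_smul_le_pointwise_smul_iff.2 hQK
      obtain ⟨x, hx, hx'⟩ := H1.exists_conj_le_of_coprime le_normalizer_of_normal hQN h1
        (by rwa [card_conj_smul]) (Or.inr inferInstance)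
      have h2 : x * c ∈ D := by
        refine ⟨C.mul_mem (hKC (hNK hx)) hc, conj_smul_eq_iff_mem_normalizer.1 ?_⟩
        rw [conj_smul_conj_smul] at hx'
        exact eq_of_le_of_card_ge hx' (card_conj_smul _ _).ge
      have : c = x⁻¹ * (x * c) := by group
      rw [this]
      exact mul_mem (mem_sup_right (N.inv_mem hx)) (mem_sup_left h2)
    refine ⟨D, ?_, le_antisymm (fun g hg => ?_) le_normalizer⟩
    · haveI : (Q.subgroupOf D).Normal := normal_subgroupOf_of_le_normalizer inf_le_right
      haveI := (isPGroup_quotient_of_index (N := Q.subgroupOf D) hj).isNilpotent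
      refine isNilpotent_of_ker_inf_ker ((π.subgroupComap C').comp (inclusion inf_le_left))
        (QuotientGroup.mk' (Q.subgroupOf D)) ?_
      rw [eq_bot_iff]
      rintro x ⟨h1, h2⟩
      rw [QuotientGroup.ker_mk'] at h2
      have h1 : (x : G) ∈ N := hker ▸ (congrArg Subtype.val h1 : π x = 1)
      exact Subtype.ext (disjoint_def.1 hdis h1 h2)
    · have h1 : g ∈ C := by
        rw [← hCC, ← hDN]
        exact normalizer_le_normalizer_sup_normal hg
      refine ⟨h1, conj_smul_eq_iff_mem_normalizer.1 (eq_of_le_of_card_ge ?_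
        (card_conj_smul _ _).ge)⟩
      refine le_of_coprime_relIndex (D := D) inf_le_right ?_ ?_
      · rw [← conj_smul_eq_iff_mem_normalizer.2 hg]
        exact pointwise_smul_le_pointwise_smul_iff.2 hQD
      · rw [card_conj_smul, hj]; exact hQp.pow_right j

theorem exists_isCarter [Finite G] [Group.IsSolvable G] : ∃ C : Subgroup G, IsCarter C :=
  exists_isCarter_aux _ G rfl

theorem isCarter_conj_aux (n : ℕ) : ∀ (G : Type u) [Group G] [Finite G] [Group.IsSolvable G],
    Nat.card G = n → ∀ C D : Subgroup G, IsCarter C → IsCarter D →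
      ∃ g : G, MulAut.conj g • C = D := by
  induction n using Nat.strong_induction_on with
  | _ n ih =>
    intro G _ _ _ hn C D hC hD
    have sub : ∀ H : Subgroup G, H ≠ ⊤ → ∀ C D : Subgroup G, IsCarter C → IsCarter D → C ≤ H →
        D ≤ H → ∃ h ∈ H, MulAut.conj h • C = D := fun H hH C D hC hD h1 h2 =>
      H1.exists_conj_of_subgroupOf h1 h2
        (ih _ (hn ▸ card_lt_of_ne_top hH) H rfl _ _ (hC.subgroupOf h1) (hD.subgroupOf h2))
    by_cases htop : (⊤ : Subgroup G) = ⊥
    · exact ⟨1, by rw [conj_one_smul, eq_bot_iff.2 (htop ▸ le_top : C ≤ ⊥),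
        eq_bot_iff.2 (htop ▸ le_top : D ≤ ⊥)]⟩
    obtain ⟨N, hN1, hN2, -, -, -, p, hp, hpN, -⟩ := exists_minimal_normal_pgroup ⊤ htop
    haveI := Fact.mk hp
    set π := QuotientGroup.mk' N
    have hπ : Function.Surjective π := QuotientGroup.mk'_surjective N
    have quot : ∀ C : Subgroup G, IsCarter C → IsCarter (C.map π) := by
      intro C hC
      haveI := hC.1
      refine ⟨Group.nilpotent_of_surjective (π.subgroupMap C) (π.subgroupMap_surjective C), ?_⟩
      apply comap_injective hπ
      rw [comap_normalizer_eq_of_surjective _ hπ, H1.comap_map_mk']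
      by_cases h : C ⊔ N = ⊤
      · rw [h, normalizer_eq_top]
      refine le_antisymm (fun g hg => ?_) le_normalizer
      obtain ⟨x, hx, hx'⟩ := sub _ h C (MulAut.conj g • C) hC (hC.conj g) le_sup_left (by
        rw [← conj_smul_eq_iff_mem_normalizer.2 hg]
        exact pointwise_smul_le_pointwise_smul_iff.2 le_sup_left)
      have h2 : x⁻¹ * g ∈ C := by
        rw [← hC.2, ← conj_smul_eq_iff_mem_normalizer, ← conj_smul_conj_smul, ← hx',
          conj_smul_conj_smul, inv_mul_cancel, conj_one_smul]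
      exact ((C ⊔ N).mul_mem_cancel_left ((C ⊔ N).inv_mem hx)).1 (mem_sup_left h2)
    obtain ⟨g, hg⟩ := ih _ (hn ▸ card_quotient_lt hN2) (G ⧸ N) rfl _ _ (quot C hC) (quot D hD)
    obtain ⟨g, rfl⟩ := hπ g
    rw [← H1.map_conj_smul] at hg
    have h1 : MulAut.conj g • C ⊔ N = D ⊔ N := by
      rw [← H1.comap_map_mk', hg, H1.comap_map_mk']
    suffices h : ∃ x : G, MulAut.conj x • MulAut.conj g • C = D by
      obtain ⟨x, hx⟩ := h
      exact ⟨x * g, by rw [← conj_smul_conj_smul, hx]⟩
    have hC' := hC.conj g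
    generalize MulAut.conj g • C = C at h1 hC'
    by_cases h : D ⊔ N = ⊤
    swap
    · obtain ⟨x, -, hx⟩ := sub _ h C D hC' hD (h1 ▸ le_sup_left) le_sup_left
      exact ⟨x, hx⟩
    have hall : ∀ C : Subgroup G, IsCarter C → C ⊔ N = ⊤ → ∃ Q : Subgroup G,
        C ≤ normalizer (Q : Set G) ∧ (Nat.card Q).Coprime p ∧ ∃ k, Q.index = p ^ k := by
      intro C hC hCN
      haveI := hC.1
      obtain ⟨Q, hQ1, hQ2, hQ3, k, hk⟩ := exists_normal_pComplement_of_isNilpotent p C
      obtain ⟨a, ha⟩ := IsPGroup.iff_card.1 hpN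
      have h2 := index_mul_card_inf_of_sup_eq_top le_normalizer_of_normal hCN
      obtain ⟨j, -, hj⟩ := (Nat.dvd_prime_pow hp).1 (ha ▸ Dvd.intro _ h2)
      exact ⟨Q, le_normalizer.trans hQ2, hQ3, k + j, by rw [← relIndex_mul_index hQ1, hk, hj, pow_add]⟩
    obtain ⟨Q, hQ1, hQ2, k, hk⟩ := hall C hC' (h1.trans h)
    obtain ⟨R, hR1, hR2, l, hl⟩ := hall D hD h
    obtain ⟨x, hx⟩ : ∃ x : G, MulAut.conj x • Q = R := by
      refine H1.hall_conj Q.card_mul_index.symm (hk ▸ hQ2.pow_right k) rfl ?_
      refine H1.card_eq_of_coprime (hk ▸ hQ2.pow_right k)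
        (R.card_mul_index.trans Q.card_mul_index.symm) (hk ▸ hR2.pow_right k)
        (hl ▸ (hQ2.pow_right l).symm)
    by_cases hR : normalizer (R : Set G) = ⊤
    · haveI := normalizer_eq_top_iff.1 hR
      haveI := (isPGroup_quotient_of_index hl).isNilpotent
      haveI : Group.IsNilpotent (G ⧸ N) := by
        have := (quot D hD).1
        rw [← map_comap_eq_self_of_surjective hπ (D.map π), H1.comap_map_mk', h,
          map_top_of_surjective π hπ] at this
        exact Group.isNilpotent_top.1 this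
      haveI : Group.IsNilpotent G := isNilpotent_of_ker_inf_ker π (QuotientGroup.mk' R) (by
        rw [QuotientGroup.ker_mk', QuotientGroup.ker_mk']
        exact (H1.disjoint_of_isPGroup_of_coprime hpN hR2).eq_bot)
      exact ⟨1, by rw [conj_one_smul, hC'.eq_top, hD.eq_top]⟩
    · obtain ⟨y, -, hy⟩ := sub _ hR _ D (hC'.conj x) hD (by
        rw [← hx, ← H1.conj_smul_normalizer]
        exact pointwise_smul_le_pointwise_smul_iff.2 hQ1) hR1
      exact ⟨y * x, by rw [← conj_smul_conj_smul, hy]⟩

theorem isCarter_conj [Finite G] [Group.IsSolvable G] {C D : Subgroup G} (hC : IsCarter C)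
    (hD : IsCarter D) : ∃ g : G, MulAut.conj g • C = D :=
  isCarter_conj_aux _ G rfl C D hC hD

end Cfsg.Agent.H2
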